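import Mathlib
import Cfsg.Agent.Chev.Sec7

/-! Local obstructions to sections `A₇` and `A₈`. -/

set_option autoImplicit false
set_option maxRecDepth 100000

namespace Cfsg.Agent.AltS
open Subgroup

theorem sec_map {G G' : Type*} [Group G] [Group G'] (j : G →* G') (hj : Function.Injective j)
    {X : Type*} [Group X] (H : Subgroup G) (K : Subgroup H) [K.Normal] (e : Nonempty (H ⧸ K ≃* X)) :
    ∃ (H' : Subgroup G') (K' : Subgroup H') (_ : K'.Normal), Nonempty (H' ⧸ K' ≃* X) := by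
  obtain ⟨e⟩ := e
  let π : H.map j →* X := (e.toMonoidHom.comp (QuotientGroup.mk' K)).comp
    (H.equivMapOfInjective j hj).symm.toMonoidHom
  exact ⟨H.map j, π.ker, inferInstance, ⟨QuotientGroup.quotientKerEquivOfSurjective π
    ((e.surjective.comp (QuotientGroup.mk'_surjective K)).comp
      (H.equivMapOfInjective j hj).symm.surjective)⟩⟩

/-- a `5`-cycle -/
def c5 : Equiv.Perm (Fin 7) := ⟨![1, 2, 3, 4, 0, 5, 6], ![4, 0, 1, 2, 3, 5, 6], by decide, by decide⟩
/-- an even permutation squaring it -/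
def d5 : Equiv.Perm (Fin 7) := ⟨![0, 2, 4, 1, 3, 6, 5], ![0, 3, 1, 4, 2, 6, 5], by decide, by decide⟩

theorem mem_alt {n r : ℕ} (hr : n ≤ r) {c : Equiv.Perm (Fin n)} (hc : Equiv.Perm.sign c = 1) :
    Equiv.Perm.viaEmbeddingHom (Fin.castLEEmb hr) c ∈ alternatingGroup (Fin r) := by
  rw [Equiv.Perm.mem_alternatingGroup, Equiv.Perm.viaEmbeddingHom_apply, Equiv.Perm.viaEmbedding,
    Equiv.Perm.sign_extendDomain, hc]

theorem exists_five_four {r : ℕ} (hr : 7 ≤ r) : ∃ a b : alternatingGroup (Fin r),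
    orderOf a = 5 ∧ b * a * b⁻¹ = a ^ 2 := by
  let ι := Equiv.Perm.viaEmbeddingHom (Fin.castLEEmb hr)
  have hι : Function.Injective ι := Equiv.Perm.viaEmbeddingHom_injective _
  refine ⟨⟨ι c5, mem_alt hr (by decide +kernel)⟩, ⟨ι d5, mem_alt hr (by decide +kernel)⟩, ?_,
    Subtype.ext ?_⟩
  · rw [← Subgroup.orderOf_coe, orderOf_injective ι hι]
    exact orderOf_eq_prime (hp := ⟨by norm_num⟩) (by decide +kernel) (by decide +kernel)
  · simp only [Subgroup.coe_mul, Subgroup.coe_inv, Subgroup.coe_pow]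
    rw [← map_inv, ← map_mul, ← map_mul, ← map_pow]
    congr 1
    decide +kernel

theorem no_A7 {G : Type*} [Group G] [Finite G] (h : ∀ P : Subgroup G, IsPGroup 5 P →
    ∀ y ∈ Subgroup.normalizer (P : Set G), ∀ x ∈ P, y ^ 6 * x * (y ^ 6)⁻¹ = x) (r : ℕ)
    (H : Subgroup G) (K : Subgroup H) [K.Normal]
    (e : Nonempty (H ⧸ K ≃* alternatingGroup (Fin r))) : r ≤ 6 := by
  by_contra hr
  obtain ⟨e⟩ := e
  obtain ⟨a, b, ha, hb⟩ := exists_five_four (r := r) (by omega)
  have : Fact (Nat.Prime 5) := ⟨by norm_num⟩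
  have hbn : b ∈ Subgroup.normalizer (Subgroup.zpowers a : Set _) := by
    refine Subgroup.mem_normalizer_fintype fun n hn => ?_
    obtain ⟨k, rfl⟩ := hn
    simp only
    rw [← conj_zpow, hb]
    exact zpow_mem (pow_mem (Subgroup.mem_zpowers a) 2) k
  obtain ⟨P, hP, y, hy, x, hx, hxa, hya⟩ := Chev.exists_lift_fusion
    (e.toMonoidHom.comp (QuotientGroup.mk' K)) (e.surjective.comp (QuotientGroup.mk'_surjective K))
    ha hbn
  set π := e.toMonoidHom.comp (QuotientGroup.mk' K)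
  have h1 := h (P.map H.subtype) (hP.map _) y
    (Subgroup.le_normalizer_map _ ⟨y, hy, rfl⟩) x ⟨x, hx, rfl⟩
  have h2 : y ^ 6 * x * (y ^ 6)⁻¹ = x := Subtype.ext (by simpa using h1)
  have h3 := congrArg π h2
  rw [map_mul, map_mul, map_inv, map_pow, hxa] at h3
  rw [hb] at hya
  have h4 : ∀ k : ℕ, π y ^ k * a * (π y ^ k)⁻¹ = a ^ 2 ^ k := fun k => by
    induction k with
    | zero => simp
    | succ k ih =>
      calc π y ^ (k + 1) * a * (π y ^ (k + 1))⁻¹ = π y * (π y ^ k * a * (π y ^ k)⁻¹) * (π y)⁻¹ := by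
            rw [pow_succ']; group
        _ = _ := by rw [ih, ← conj_pow, hya, ← pow_mul, pow_succ']
  rw [h4] at h3
  have h5 : a ^ 63 = 1 := by
    have : a ^ 63 * a = 1 * a := by rw [← pow_succ, one_mul]; exact h3
    exact mul_right_cancel this
  have := orderOf_dvd_of_pow_eq_one h5
  rw [ha] at this
  norm_num at this

theorem card_le_eight {W Q : Type*} [CommGroup W] [Finite W] [Group Q] (ψ : W →* Q)
    (h4 : Nat.card {w : W // w ^ 2 = 1} ≤ 4)
    (h : ∀ a b : W, ψ a ^ 2 = 1 ∨ ψ b ^ 2 = 1 ∨ ψ a ^ 2 = ψ b ^ 2) : Nat.card ψ.range ≤ 8 := by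
  let s : W →* W := powMonoidHom 2
  have h1 : s.range.index = Nat.card s.ker := by
    have e1 := s.range.card_mul_index
    have e2 := s.ker.card_mul_index
    rw [index_ker] at e2
    have e3 : 0 < Nat.card s.range := Nat.card_pos
    exact Nat.eq_of_mul_eq_mul_left e3 (by rw [e1, ← e2, mul_comm])
  have h2 : s.range.index ≤ 4 := h1 ▸ h4
  have : Finite ψ.range := Finite.of_surjective _ ψ.rangeRestrict_surjective
  have h3 := Nat.le_of_dvd (Nat.pos_of_ne_zero index_ne_zero_of_finite)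
    (index_map_dvd s.range ψ.rangeRestrict_surjective)
  have h5 : Nat.card (s.range.map ψ.rangeRestrict) ≤ 2 := by
    by_contra hn
    have : Fintype (s.range.map ψ.rangeRestrict) := Fintype.ofFinite _
    rw [Nat.card_eq_fintype_card, not_le, Fintype.two_lt_card_iff] at hn
    obtain ⟨⟨_, _, ⟨a, rfl⟩, rfl⟩, ⟨_, _, ⟨b, rfl⟩, rfl⟩, ⟨_, _, ⟨c, rfl⟩, rfl⟩, n1, n2, n3⟩ := hn
    have key : ∀ x y : W, ψ (x / y) ^ 2 = 1 → ψ.rangeRestrict (s x) = ψ.rangeRestrict (s y) :=
      fun x y e => Subtype.ext (by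
        change ψ (x ^ 2) = ψ (y ^ 2)
        rwa [← map_pow, div_pow, map_div, div_eq_one] at e)
    rcases h (a / c) (b / c) with e | e | e
    · exact n2 (Subtype.ext (key _ _ e))
    · exact n3 (Subtype.ext (key _ _ e))
    · refine n1 (Subtype.ext (Subtype.ext ?_))
      change ψ (a ^ 2) = ψ (b ^ 2)
      rwa [← map_pow, ← map_pow, div_pow, div_pow, map_div, map_div, div_left_inj] at e
  have h6 := (s.range.map ψ.rangeRestrict).card_mul_index
  nlinarith

/-- unitriangular affine maps of `𝔽₂³` -/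
def af (i : Fin 64) (x : Fin 8) : Fin 8 :=
  ⟨(x.1 ^^^ (i.1 % 8) ^^^ (x.1 / 2 % 2 * (i.1 / 8 % 2)) ^^^ (x.1 / 4 * (i.1 / 16))) % 8,
    Nat.mod_lt _ (by decide)⟩

theorem af_four : ∀ i x, af i (af i (af i (af i x))) = x := by decide +kernel

/-- the corresponding permutations -/
def el (i : Fin 64) : Equiv.Perm (Fin 8) :=
  ⟨af i, fun x => af i (af i (af i x)), af_four i, af_four i⟩

theorem af_inj : ∀ i j : Fin 64, (∀ x, af i x = af j x) → i = j := by decide +kernel
theorem af_mul : ∀ i j : Fin 64, ∃ k, ∀ x, af i (af j x) = af k x := by decide +kernel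
theorem af_sq : ∀ i j : Fin 64, (∀ x, af i (af j x) = af j (af i x)) →
    (∀ x, af i (af i x) = x) ∨ (∀ x, af j (af j x) = x) ∨ ∀ x, af i (af i x) = af j (af j x) := by
  decide +kernel
theorem el_sign : ∀ i, Equiv.Perm.sign (el i) = 1 := by decide +kernel

theorem exists_Q {r : ℕ} (hr : 8 ≤ r) : ∃ Q : Subgroup (alternatingGroup (Fin r)),
    Nat.card Q = 64 ∧ ∀ a ∈ Q, ∀ b ∈ Q, a * b = b * a → a ^ 2 = 1 ∨ b ^ 2 = 1 ∨ a ^ 2 = b ^ 2 := by
  let ι := Equiv.Perm.viaEmbeddingHom (Fin.castLEEmb hr)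
  have hι : Function.Injective ι := Equiv.Perm.viaEmbeddingHom_injective _
  let g : Fin 64 → alternatingGroup (Fin r) := fun i => ⟨ι (el i), mem_alt hr (el_sign i)⟩
  have hm : ∀ i j, ∃ k, g i * g j = g k := fun i j => by
    obtain ⟨k, hk⟩ := af_mul i j
    exact ⟨k, Subtype.ext ((map_mul ι _ _).symm.trans (congrArg ι (Equiv.ext hk)))⟩
  have h4 : ∀ i, g i * (g i * (g i * g i)) = 1 := fun i => Subtype.ext (by
    change ι _ * (ι _ * (ι _ * ι _)) = 1
    rw [← map_mul, ← map_mul, ← map_mul, ← map_one ι]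
    exact congrArg ι (Equiv.ext (af_four i)))
  have hm' : ∀ a ∈ Set.range g, ∀ b ∈ Set.range g, a * b ∈ Set.range g := by
    rintro _ ⟨i, rfl⟩ _ ⟨j, rfl⟩
    obtain ⟨k, hk⟩ := hm i j
    exact ⟨k, hk.symm⟩
  refine ⟨{ carrier := Set.range g
            mul_mem' := fun ha hb => hm' _ ha _ hb
            one_mem' := h4 0 ▸ hm' _ ⟨0, rfl⟩ _ (hm' _ ⟨0, rfl⟩ _ (hm' _ ⟨0, rfl⟩ _ ⟨0, rfl⟩))
            inv_mem' := by
              rintro _ ⟨i, rfl⟩
              rw [inv_eq_of_mul_eq_one_right (h4 i)]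
              exact hm' _ ⟨i, rfl⟩ _ (hm' _ ⟨i, rfl⟩ _ ⟨i, rfl⟩) }, ?_, ?_⟩
  · have : Function.Injective g := fun i j e =>
      af_inj i j fun x => Equiv.congr_fun (hι (congrArg Subtype.val e)) x
    exact (Nat.card_range_of_injective this).trans (by simp)
  · rintro _ ⟨i, rfl⟩ _ ⟨j, rfl⟩ e
    have e1 : el i * el j = el j * el i := hι (by
      rw [map_mul, map_mul]; exact congrArg Subtype.val e)
    have s1 : ∀ i, (∀ x, af i (af i x) = x) → g i ^ 2 = 1 := fun i h => Subtype.ext (by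
      change ι _ ^ 2 = 1
      rw [pow_two, ← map_mul, ← map_one ι]
      exact congrArg ι (Equiv.ext h))
    rcases af_sq i j fun x => Equiv.congr_fun e1 x with h | h | h
    · exact Or.inl (s1 i h)
    · exact Or.inr (Or.inl (s1 j h))
    · refine Or.inr (Or.inr (Subtype.ext ?_))
      change ι _ ^ 2 = ι _ ^ 2
      rw [pow_two, pow_two, ← map_mul, ← map_mul]
      exact congrArg ι (Equiv.ext h)

theorem no_A8 {G : Type*} [Group G] [Finite G] {M : Type*} [CommGroup M] [Finite M] (f : M →* G)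
    (N : Subgroup G) (hn : ∀ n ∈ N, ∀ t ∈ f.range, n * t * n⁻¹ ∈ f.range)
    (hi : f.range.relIndex N ∣ 12) (hN : ¬ 2 ∣ N.index) (h4 : Nat.card {m : M // m ^ 2 = 1} ≤ 4)
    (r : ℕ) (H : Subgroup G) (K : Subgroup H) [K.Normal]
    (e : Nonempty (H ⧸ K ≃* alternatingGroup (Fin r))) : r ≤ 7 := by
  by_contra hr
  obtain ⟨e⟩ := e
  obtain ⟨Q, hQ, hsq⟩ := exists_Q (r := r) (by omega)
  let π := e.toMonoidHom.comp (QuotientGroup.mk' K)
  have hπ : Function.Surjective π := e.surjective.comp (QuotientGroup.mk'_surjective K)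
  let L : Subgroup H := Q.comap π
  let π' : L →* Q := (π.comp L.subtype).codRestrict _ fun g => g.2
  have hπ' : Function.Surjective π' := fun c => by
    obtain ⟨g, hg⟩ := hπ c
    exact ⟨⟨g, by simp [L, hg]⟩, Subtype.ext hg⟩
  let P : Sylow 2 L := default
  have hz : IsPGroup 2 Q := IsPGroup.of_card (n := 6) hQ
  have htop : ((P.mapSurjective hπ' : Sylow 2 _) : Subgroup Q) = ⊤ :=
    ((P.mapSurjective hπ').3 (hz.to_subgroup ⊤) le_top).symm
  let α : (P : Subgroup L) →* Q := π'.comp (Subgroup.subtype _)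
  have hα : Function.Surjective α := fun c => by
    have : c ∈ (P : Subgroup L).map π' := by rw [← Sylow.coe_mapSurjective hπ', htop]; trivial
    obtain ⟨x, hx, rfl⟩ := this
    exact ⟨⟨x, hx⟩, rfl⟩
  let β : (P : Subgroup L) →* G := H.subtype.comp (L.subtype.comp (Subgroup.subtype _))
  have hβ : Function.Injective β := fun a b h => Subtype.ext (Subtype.ext (Subtype.ext h))
  obtain ⟨R, hR⟩ := FGS.exists_sylow_le_of_not_dvd_index hN
  obtain ⟨R', hR'⟩ := (P.2.of_surjective _ β.rangeRestrict_surjective).exists_le_sylow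
  obtain ⟨c, hc⟩ := MulAction.exists_smul_eq G R' R
  let φ : (P : Subgroup L) →* G := (MulAut.conj c).toMonoidHom.comp β
  have hφ : Function.Injective φ := (MulAut.conj c).injective.comp hβ
  have hφN : ∀ s, φ s ∈ N := fun s => hR (by
    rw [← hc, Sylow.coe_subgroup_smul]
    exact Subgroup.smul_mem_pointwise_smul _ _ _ (hR' ⟨s, rfl⟩))
  have hT : (f.range.subgroupOf N).Normal := ⟨fun t ht n => hn n n.2 t ht⟩
  let γ : (P : Subgroup L) →* N ⧸ f.range.subgroupOf N :=
    (QuotientGroup.mk' _).comp (φ.codRestrict N hφN)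
  have h1 : γ.ker.index ∣ 12 := by
    rw [index_ker]; exact (card_subgroup_dvd_card _).trans hi
  have h2 : γ.ker.index ∣ 4 := by
    obtain ⟨k, hk⟩ := P.2.index γ.ker
    rw [hk] at h1 ⊢
    exact (Nat.Coprime.pow_left k (show Nat.Coprime 2 3 by norm_num)).dvd_of_dvd_mul_left
      (show 2 ^ k ∣ 3 * 4 from h1)
  let W : Subgroup (M × (P : Subgroup L)) :=
    (f.comp (MonoidHom.fst _ _)).eqLocus (φ.comp (MonoidHom.snd _ _))
  have hW : ∀ a b : W, a.1.1 = b.1.1 → a = b := fun a b h => Subtype.ext (Prod.ext h (hφ (by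
    have h1 : f a.1.1 = φ a.1.2 := a.2
    have h2 : f b.1.1 = φ b.1.2 := b.2
    rw [← h1, ← h2, h])))
  letI : CommGroup W := { (inferInstance : Group W) with
    mul_comm := fun a b => hW _ _ (mul_comm a.1.1 b.1.1) }
  let ψ : W →* Q := α.comp ((MonoidHom.snd _ _).comp W.subtype)
  have h3 := card_le_eight ψ ((Nat.card_le_card_of_injective
    (fun w : {w : W // w ^ 2 = 1} => (⟨w.1.1.1, congrArg (fun x : W => x.1.1) w.2⟩ :
      {m : M // m ^ 2 = 1})) fun a b h => Subtype.ext (hW _ _ (congrArg Subtype.val h))).trans h4)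
    fun a b => by
      have := hsq _ (ψ a).2 _ (ψ b).2 (congrArg Subtype.val
        (show ψ a * ψ b = ψ b * ψ a by rw [← map_mul, ← map_mul, mul_comm]))
      simpa only [Subtype.ext_iff, Subgroup.coe_pow, Subgroup.coe_one] using this
  have h5 : γ.ker.map α ≤ ψ.range := by
    rintro _ ⟨s, hs, rfl⟩
    have hs' : (QuotientGroup.mk (φ.codRestrict N hφN s) : N ⧸ f.range.subgroupOf N) = 1 := hs
    obtain ⟨m, hm⟩ : φ s ∈ f.range := mem_subgroupOf.mp ((QuotientGroup.eq_one_iff _).mp hs')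
    exact ⟨⟨(m, s), hm⟩, rfl⟩
  have h6 := Nat.le_of_dvd (by norm_num) ((index_dvd_of_le h5).trans
    ((index_map_dvd γ.ker hα).trans h2))
  have h7 := ψ.range.card_mul_index
  rw [hQ] at h7
  nlinarith

end Cfsg.Agent.AltS
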