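import Mathlib
import Cfsg.Agent.G2A.F

namespace Cfsg.Agent.AltS

open Subgroup

theorem no_A7b {G : Type*} [Group G] [Finite G]
    (h : ∀ P : Subgroup G, IsPGroup 5 P → ∀ y ∈ Subgroup.normalizer (P : Set G), ∀ x ∈ P,
      y ^ 6 * x * (y ^ 6)⁻¹ = x) (r : ℕ) (H : Subgroup G) (K : Subgroup H) [K.Normal]
    (e : Nonempty (H ⧸ K ≃* alternatingGroup (Fin r))) : r ≤ 6 := by
  by_contra hr
  obtain ⟨e⟩ := e
  obtain ⟨z0, g0, hz0, hg0⟩ := Cfsg.Agent.G2A.five (r := r) (by omega)
    (e.toMonoidHom.comp (QuotientGroup.mk' K)) (e.surjective.comp (QuotientGroup.mk'_surjective K))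
  haveI : Fact (Nat.Prime 5) := ⟨by norm_num⟩
  set z : G := (z0 : G) with hzdef
  set g : G := (g0 : G) with hgdef
  have hz : orderOf z = 5 := by rw [hzdef, Subgroup.orderOf_coe, hz0]
  have hg : g * z * g⁻¹ = z ^ 2 := by simpa using congrArg Subtype.val hg0
  have hP : IsPGroup 5 (zpowers z) := IsPGroup.of_card (n := 1) (by simp [hz])
  have hn : g ∈ normalizer (zpowers z : Set G) := by
    refine mem_normalizer_fintype fun n hn => ?_
    obtain ⟨j, rfl⟩ := hn
    simp only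
    rw [← conj_zpow, hg]
    exact zpow_mem (pow_mem (mem_zpowers z) 2) j
  have h3 := h _ hP g hn z (mem_zpowers z)
  have h4 : ∀ k : ℕ, g ^ k * z * (g ^ k)⁻¹ = z ^ 2 ^ k := fun k => by
    induction k with
    | zero => simp
    | succ k ih =>
      calc g ^ (k + 1) * z * (g ^ (k + 1))⁻¹ = g * (g ^ k * z * (g ^ k)⁻¹) * g⁻¹ := by
            rw [pow_succ']; group
        _ = _ := by rw [ih, ← conj_pow, hg, ← pow_mul, pow_succ']
  rw [h4] at h3
  have h5 : z ^ 63 = 1 := by
    have : z ^ 63 * z = 1 * z := by rw [← pow_succ, one_mul]; exact h3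
    exact mul_right_cancel this
  have := orderOf_dvd_of_pow_eq_one h5
  rw [hz] at this
  norm_num at this

end Cfsg.Agent.AltS
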