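import Mathlib

set_option autoImplicit false
set_option maxRecDepth 100000
set_option synthInstance.maxSize 100000
set_option synthInstance.maxHeartbeats 400000

namespace Cfsg.Agent.AltS

def sg8 (f : Fin 8 → Fin 8) : ℤˣ := ∏ j, ∏ i ∈ Finset.Iio j, (if f i < f j then 1 else -1)

def mk8 (a0 a1 a2 a3 a4 a5 a6 a7 : Fin 8) (i : Fin 8) : Fin 8 :=
  [a0, a1, a2, a3, a4, a5, a6, a7].getD i.val 0

theorem mk8_eq (f : Fin 8 → Fin 8) :
    mk8 (f 0) (f 1) (f 2) (f 3) (f 4) (f 5) (f 6) (f 7) = f := by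
  funext i; fin_cases i <;> rfl

def kf (f : Fin 8 → Fin 8) : Prop :=
  (∀ i, f (f (f (f i))) = i) → sg8 f = 1 → ∀ y0 y1, y1 = f y0 → ∀ y2, y2 = f y1 → ∀ y3, y3 = f y2 →
    ∀ y4, [y0, y1, y2, y3, y4].Nodup → ∀ y5, [y0, y1, y2, y3, y4, y5].Nodup →
    ∀ y6, [y0, y1, y2, y3, y4, y5, y6].Nodup → ∀ y7, [y0, y1, y2, y3, y4, y5, y6, y7].Nodup →
    (∀ i, f (mk8 y0 y1 y2 y3 y4 y5 y6 y7 i) = mk8 y0 y1 y2 y3 y4 y5 y6 y7 (f i)) →
    sg8 (mk8 y0 y1 y2 y3 y4 y5 y6 y7) = 1 →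
    (∀ i, mk8 y0 y1 y2 y3 y4 y5 y6 y7 (mk8 y0 y1 y2 y3 y4 y5 y6 y7 (mk8 y0 y1 y2 y3 y4 y5 y6 y7
      (mk8 y0 y1 y2 y3 y4 y5 y6 y7 i))) = i) →
    (∀ i, mk8 y0 y1 y2 y3 y4 y5 y6 y7 (mk8 y0 y1 y2 y3 y4 y5 y6 y7 i) = i) ∨
    (∀ i, f (f i) = mk8 y0 y1 y2 y3 y4 y5 y6 y7 (mk8 y0 y1 y2 y3 y4 y5 y6 y7 i))

instance (f : Fin 8 → Fin 8) : Decidable (kf f) := by unfold kf; infer_instance

theorem key8 : ∀ a4 a5 a6 a7 : Fin 8, kf (mk8 1 2 3 0 a4 a5 a6 a7) := by decide +kernel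

theorem sq_aux (x y : Equiv.Perm (Fin 8)) (sx : Equiv.Perm.sign x = 1) (sy : Equiv.Perm.sign y = 1)
    (hc : Commute x y) (hx : x ^ 4 = 1) (hy : y ^ 4 = 1) (h0 : x 0 = 1) (h1 : x 1 = 2)
    (h2 : x 2 = 3) (h3 : x 3 = 0) : y ^ 2 = 1 ∨ x ^ 2 = y ^ 2 := by
  have k := key8 (x 4) (x 5) (x 6) (x 7)
  have e : mk8 1 2 3 0 (x 4) (x 5) (x 6) (x 7) = x := by
    rw [← mk8_eq x, h0, h1, h2, h3]; rfl
  rw [e] at k
  have c : ∀ i, x (y i) = y (x i) := fun i => by
    have := congrArg (fun g : Equiv.Perm (Fin 8) => g i) hc.eq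
    simpa using this
  have p4 : ∀ z : Equiv.Perm (Fin 8), z ^ 4 = 1 → ∀ i, z (z (z (z i))) = i := fun z hz i => by
    have := congrArg (fun g : Equiv.Perm (Fin 8) => g i) hz
    simpa [pow_succ] using this
  have s : ∀ z : Equiv.Perm (Fin 8), Equiv.Perm.sign z = 1 → sg8 z = 1 := fun z hz => by
    rw [← hz, Equiv.Perm.sign_eq_prod_prod_Iio]; rfl
  have := k (p4 x hx) (s x sx) (y 0) (y 1) (by rw [c, h0]) (y 2) (by rw [c, h1]) (y 3)
    (by rw [c, h2]) (y 4) (by simp [y.injective.eq_iff]) (y 5) (by simp [y.injective.eq_iff])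
    (y 6) (by simp [y.injective.eq_iff]) (y 7) (by simp [y.injective.eq_iff])
  rw [mk8_eq y] at this
  rcases this c (s y sy) (p4 y hy) with h | h
  · left; ext i; simp [pow_succ, h i]
  · right; ext i; simp [pow_succ, h i]

theorem a8_sq (x y : Equiv.Perm (Fin 8)) (sx : Equiv.Perm.sign x = 1) (sy : Equiv.Perm.sign y = 1)
    (hc : Commute x y) (hx : x ^ 4 = 1) (hy : y ^ 4 = 1) :
    x ^ 2 = 1 ∨ y ^ 2 = 1 ∨ x ^ 2 = y ^ 2 := by
  by_cases h : x ^ 2 = 1
  · exact Or.inl h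
  right
  obtain ⟨a, ha⟩ : ∃ a, x (x a) ≠ a := by
    by_contra hn
    push Not at hn
    exact h (by ext i; simp [pow_succ, hn i])
  have p4 : x (x (x (x a))) = a := by
    have := congrArg (fun g : Equiv.Perm (Fin 8) => g a) hx
    simpa [pow_succ] using this
  have n1 : x a ≠ a := fun e => ha (by rw [e, e])
  have n3 : x (x (x a)) ≠ a := fun e => n1 (by rw [← p4, e]; rw [e] at p4; rw [p4, p4])
  have hg : Function.Injective (![a, x a, x (x a), x (x (x a))] : Fin 4 → Fin 8) := by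
    intro i j
    fin_cases i <;> fin_cases j <;>
      simp [x.injective.eq_iff, n1, ha, n3, n1.symm, ha.symm, n3.symm]
  have hf : Function.Injective (![0, 1, 2, 3] : Fin 4 → Fin 8) := by decide
  obtain ⟨c, hc'⟩ := Equiv.Perm.exists_extending_pair _ _ hf hg
  have c0 : c 0 = a := hc' 0
  have c1 : c 1 = x a := hc' 1
  have c2 : c 2 = x (x a) := hc' 2
  have c3 : c 3 = x (x (x a)) := hc' 3
  have q : ∀ (z : Equiv.Perm (Fin 8)) (n : ℕ), (c⁻¹ * z * c) ^ n = c⁻¹ * z ^ n * c := fun z n => by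
    simpa using conj_pow (a := c⁻¹) (b := z) (i := n)
  have := sq_aux (c⁻¹ * x * c) (c⁻¹ * y * c) (by simp [sx]) (by simp [sy])
    (by simpa using hc.conj c⁻¹) (by rw [q, hx]; simp) (by rw [q, hy]; simp)
    (by simp [c0, ← c1]) (by simp [c1, ← c2]) (by simp [c2, ← c3])
    (by rw [Equiv.Perm.mul_apply, Equiv.Perm.mul_apply, c3, p4, ← c0]; simp)
  rw [q, q] at this
  rcases this with h | h
  · left
    have : y ^ 2 = c * (c⁻¹ * y ^ 2 * c) * c⁻¹ := by group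
    rw [this, h]; simp
  · right
    simpa using h

theorem a8_exp (x : Equiv.Perm (Fin 8)) (sx : Equiv.Perm.sign x = 1) {k : ℕ} (hx : x ^ 2 ^ k = 1) :
    x ^ 4 = 1 := by
  rw [← orderOf_dvd_iff_pow_eq_one, ← Equiv.Perm.lcm_cycleType, Multiset.lcm_dvd] at hx ⊢
  intro n hn
  have h1 := hx n hn
  have h2 := x.sum_cycleType_le
  have h3 := Multiset.single_le_sum (fun _ _ => Nat.zero_le _) n hn
  rw [Fintype.card_fin] at h2
  obtain ⟨j, -, rfl⟩ := (Nat.dvd_prime_pow Nat.prime_two).1 h1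
  have hj : j ≤ 3 := by
    by_contra hj
    have := Nat.pow_le_pow_right (n := 2) (by norm_num) (show 4 ≤ j by omega)
    omega
  interval_cases j
  · norm_num
  · norm_num
  · norm_num
  · exfalso
    obtain ⟨t, ht⟩ := Multiset.exists_cons_of_mem hn
    have ht0 : t = 0 := by
      by_contra h0
      obtain ⟨m, hm⟩ := Multiset.exists_mem_of_ne_zero h0
      have h4 := Multiset.single_le_sum (fun _ _ => Nat.zero_le _) m hm
      have h5 := Equiv.Perm.two_le_of_mem_cycleType (σ := x) (n := m)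
        (by rw [ht]; exact Multiset.mem_cons_of_mem hm)
      rw [ht, Multiset.sum_cons] at h2
      omega
    rw [Equiv.Perm.sign_of_cycleType, ht, ht0] at sx
    revert sx; decide

/-- image in `A₈` of an abelian `2`-group with at most four solutions of `a² = 1`. -/
theorem a8_img {A : Type*} [CommGroup A] [Finite A] (hA : IsPGroup 2 A)
    (h4 : Nat.card {a : A // a ^ 2 = 1} ≤ 4) (φ : A →* alternatingGroup (Fin 8)) :
    Nat.card φ.range ≤ 8 := by
  let s : A →* A := powMonoidHom 2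
  have i1 : s.range.index ≤ 4 := by
    rw [Subgroup.index_range]
    exact le_trans (le_of_eq (Nat.card_congr (Equiv.refl _))) h4
  have i2 : (s.range.map φ.rangeRestrict).index ≤ 4 :=
    le_trans (Nat.le_of_dvd (Nat.pos_of_ne_zero Subgroup.FiniteIndex.index_ne_zero)
      (Subgroup.index_map_dvd _ φ.rangeRestrict_surjective)) i1
  have e4 : ∀ a : A, ((φ a : alternatingGroup (Fin 8)) : Equiv.Perm (Fin 8)) ^ 4 = 1 := fun a => by
    obtain ⟨k, hk⟩ := hA a
    refine a8_exp _ (φ a).2 (k := k) ?_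
    rw [← Subgroup.coe_pow, ← map_pow, hk]; simp
  have sq : ∀ a b : A, φ (a ^ 2) = 1 ∨ φ (b ^ 2) = 1 ∨ φ (a ^ 2) = φ (b ^ 2) := fun a b => by
    have hc : Commute ((φ a : alternatingGroup (Fin 8)) : Equiv.Perm (Fin 8)) (φ b) := by
      have := ((Commute.all a b).map φ).map (alternatingGroup (Fin 8)).subtype
      exact this
    have := a8_sq _ _ (φ a).2 (φ b).2 hc (e4 a) (e4 b)
    simpa only [map_pow, Subtype.ext_iff, Subgroup.coe_pow, Subgroup.coe_one] using this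
  have i3 : Nat.card (s.range.map φ.rangeRestrict) ≤ 2 := by
    obtain ⟨u, hu⟩ : ∃ u : φ.range, ∀ a : A, φ.rangeRestrict (a ^ 2) = 1 ∨
        φ.rangeRestrict (a ^ 2) = u := by
      by_cases h : ∃ b : A, φ (b ^ 2) ≠ 1
      · obtain ⟨b, hb⟩ := h
        refine ⟨φ.rangeRestrict (b ^ 2), fun a => ?_⟩
        rcases sq a b with h | h | h
        · exact Or.inl (Subtype.ext h)
        · exact absurd h hb
        · exact Or.inr (Subtype.ext h)
      · push Not at h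
        exact ⟨1, fun a => Or.inl (Subtype.ext (h a))⟩
    have : ((s.range.map φ.rangeRestrict : Subgroup φ.range) : Set φ.range) ⊆ {1, u} := by
      rintro _ ⟨_, ⟨a, rfl⟩, rfl⟩
      exact hu a
    calc Nat.card (s.range.map φ.rangeRestrict) ≤ ({1, u} : Set φ.range).ncard :=
          Set.ncard_le_ncard this (Set.toFinite _)
      _ ≤ 2 := le_trans (Set.ncard_insert_le _ _) (by simp)
  have := (s.range.map φ.rangeRestrict).card_mul_index
  nlinarith

end Cfsg.Agent.AltS
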