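import Mathlib
import Cfsg.Agent.AltS.A8
import Cfsg.Agent.AltS.F35
import Cfsg.Agent.FGS.Basic

set_option autoImplicit false

namespace Cfsg.Agent.AltS

theorem a8_img2 {A : Type*} [CommGroup A] [Finite A]
    (h4 : Nat.card {a : A // a ^ 2 = 1} ≤ 4) (φ : A →* alternatingGroup (Fin 8))
    (hA : ∀ a, ∃ k : ℕ, φ a ^ 2 ^ k = 1) :
    Nat.card φ.range ≤ 8 := by
  let s : A →* A := powMonoidHom 2
  have i1 : s.range.index ≤ 4 := by
    rw [Subgroup.index_range]
    exact le_trans (le_of_eq (Nat.card_congr (Equiv.refl _))) h4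
  have i2 : (s.range.map φ.rangeRestrict).index ≤ 4 :=
    le_trans (Nat.le_of_dvd (Nat.pos_of_ne_zero Subgroup.FiniteIndex.index_ne_zero)
      (Subgroup.index_map_dvd _ φ.rangeRestrict_surjective)) i1
  have e4 : ∀ a : A, ((φ a : alternatingGroup (Fin 8)) : Equiv.Perm (Fin 8)) ^ 4 = 1 := fun a => by
    obtain ⟨k, hk⟩ := hA a
    refine a8_exp _ (φ a).2 (k := k) ?_
    rw [← Subgroup.coe_pow, hk]; simp
  have sq : ∀ a b : A, φ (a ^ 2) = 1 ∨ φ (b ^ 2) = 1 ∨ φ (a ^ 2) = φ (b ^ 2) := fun a b => by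
    have hc : Commute ((φ a : alternatingGroup (Fin 8)) : Equiv.Perm (Fin 8)) (φ b) := by
      have := ((Commute.all a b).map φ).map (alternatingGroup (Fin 8)).subtype
      exact this
    have := a8_sq _ _ (φ a).2 (φ b).2 hc (e4 a) (e4 b)
    simpa only [map_pow, Subtype.ext_iff, Subgroup.coe_pow, Subgroup.coe_one] using this
  have i3 : Nat.card (s.range.map φ.rangeRestrict) ≤ 2 := by
    obtain ⟨u, hu⟩ : ∃ u : φ.range, ∀ a : A, φ.rangeRestrict (a ^ 2) = 1 ∨
        φ.rangeRestrict (a ^ 2) = u := by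
      by_cases h : ∃ b : A, φ (b ^ 2) ≠ 1
      · obtain ⟨b, hb⟩ := h
        refine ⟨φ.rangeRestrict (b ^ 2), fun a => ?_⟩
        rcases sq a b with h | h | h
        · exact Or.inl (Subtype.ext h)
        · exact absurd h hb
        · exact Or.inr (Subtype.ext h)
      · push Not at h
        exact ⟨1, fun a => Or.inl (Subtype.ext (h a))⟩
    have : ((s.range.map φ.rangeRestrict : Subgroup φ.range) : Set φ.range) ⊆ {1, u} := by
      rintro _ ⟨_, ⟨a, rfl⟩, rfl⟩
      exact hu a
    calc Nat.card (s.range.map φ.rangeRestrict) ≤ ({1, u} : Set φ.range).ncard :=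
          Set.ncard_le_ncard this (Set.toFinite _)
      _ ≤ 2 := le_trans (Set.ncard_insert_le _ _) (by simp)
  have := (s.range.map φ.rangeRestrict).card_mul_index
  nlinarith

theorem a8_core {G : Type*} [Group G] [Finite G] {M : Type*} [CommGroup M] [Finite M] (f : M →* G)
    (N : Subgroup G) (hn : ∀ n ∈ N, ∀ t ∈ f.range, n * t * n⁻¹ ∈ f.range)
    (hi : f.range.relIndex N ∣ 12) (h4 : Nat.card {m : M // m ^ 2 = 1} ≤ 4)
    {P : Type*} [Group P] [Finite P] (hP : IsPGroup 2 P) (j : P →* G) (hj : Function.Injective j)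
    (hjN : j.range ≤ N) (ρ : P →* alternatingGroup (Fin 8)) : Nat.card ρ.range ≤ 32 := by
  haveI : Fact (Nat.Prime 2) := ⟨Nat.prime_two⟩
  haveI : (f.range.subgroupOf N).Normal := ⟨fun t ht n => hn n n.2 t ht⟩
  let A : Subgroup P := f.range.comap j
  have a1 : A.index ∣ 12 := by
    rw [Subgroup.index_comap, ← Subgroup.relIndex_subgroupOf hjN]
    exact (Subgroup.relIndex_dvd_index_of_normal _ _).trans hi
  have a2 : A.index ≤ 4 := by
    obtain ⟨k, hk⟩ := hP.index A
    rw [hk] at a1 ⊢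
    have : (2 ^ k) ∣ 4 := (Nat.Coprime.pow_left k (by norm_num : Nat.Coprime 2 3)).dvd_of_dvd_mul_right
      (by simpa using a1)
    exact Nat.le_of_dvd (by norm_num) this
  let B : Subgroup M := j.range.comap f
  let g : B →* j.range := (f.comp B.subtype).codRestrict _ fun b => b.2
  let g' : B →* P := (MonoidHom.ofInjective hj).symm.toMonoidHom.comp g
  have b4 : Nat.card {b : B // b ^ 2 = 1} ≤ 4 := by
    refine le_trans (Nat.card_le_card_of_injective
      (fun b => (⟨b.1.1, by rw [← Subgroup.coe_pow, b.2]; rfl⟩ : {m : M // m ^ 2 = 1})) ?_) h4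
    intro x y e
    have e' := congrArg Subtype.val e
    exact Subtype.ext (Subtype.ext e')
  have i8 := a8_img2 b4 (ρ.comp g') fun b => by
    obtain ⟨k, hk⟩ := hP (g' b)
    exact ⟨k, by rw [MonoidHom.comp_apply, ← map_pow, hk, map_one]⟩
  have i2 : (A.map ρ.rangeRestrict).index ≤ 4 :=
    le_trans (Nat.le_of_dvd (Nat.pos_of_ne_zero Subgroup.FiniteIndex.index_ne_zero)
      (Subgroup.index_map_dvd _ ρ.rangeRestrict_surjective)) a2
  have i3 : Nat.card (A.map ρ.rangeRestrict) ≤ Nat.card (ρ.comp g').range := by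
    have hm : ∀ x : A.map ρ.rangeRestrict, x.1.1 ∈ (ρ.comp g').range := by
      rintro ⟨_, a, ⟨m, hm⟩, rfl⟩
      refine ⟨⟨m, a, hm.symm⟩, ?_⟩
      have : g' ⟨m, a, hm.symm⟩ = a := by
        apply hj
        exact (MonoidHom.apply_ofInjective_symm hj _).trans hm
      simp [this]
    refine Nat.card_le_card_of_injective (fun x => ⟨x.1.1, hm x⟩) ?_
    intro x y e
    have e' := congrArg Subtype.val e
    exact Subtype.ext (Subtype.ext e')
  have := (A.map ρ.rangeRestrict).card_mul_index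
  nlinarith

theorem no_A8b {G : Type*} [Group G] [Finite G] {M : Type*} [CommGroup M] [Finite M] (f : M →* G)
    (N : Subgroup G) (hn : ∀ n ∈ N, ∀ t ∈ f.range, n * t * n⁻¹ ∈ f.range)
    (hi : f.range.relIndex N ∣ 12) (hN : ¬ 2 ∣ N.index) (h4 : Nat.card {m : M // m ^ 2 = 1} ≤ 4)
    (r : ℕ) (H : Subgroup G) (K : Subgroup H) [K.Normal]
    (e : Nonempty (H ⧸ K ≃* alternatingGroup (Fin r))) : r ≤ 7 := by
  by_contra hr
  haveI : Fact (Nat.Prime 2) := ⟨Nat.prime_two⟩
  obtain ⟨e⟩ := e
  obtain ⟨ι, hι⟩ := f35_emb (n := 8) (r := r) (by omega)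
  let π : H →* alternatingGroup (Fin r) := e.toMonoidHom.comp (QuotientGroup.mk' K)
  have hπ : Function.Surjective π := e.surjective.comp (QuotientGroup.mk'_surjective K)
  let L : Subgroup H := ι.range.comap π
  let g : L →* ι.range := (π.comp L.subtype).codRestrict _ fun b => b.2
  have hg : Function.Surjective g := fun c => by
    obtain ⟨x, hx⟩ := hπ c
    exact ⟨⟨x, by rw [Subgroup.mem_comap, hx]; exact c.2⟩, Subtype.ext hx⟩
  let π' : L →* alternatingGroup (Fin 8) := (MonoidHom.ofInjective hι).symm.toMonoidHom.comp g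
  have hπ' : Function.Surjective π' := (MonoidHom.ofInjective hι).symm.surjective.comp hg
  let P : Sylow 2 L := default
  let j0 : (P : Subgroup L) →* G := H.subtype.comp (L.subtype.comp (P : Subgroup L).subtype)
  have hj0 : Function.Injective j0 :=
    H.subtype_injective.comp (L.subtype_injective.comp (P : Subgroup L).subtype_injective)
  obtain ⟨R, hR⟩ := FGS.exists_sylow_le_of_not_dvd_index hN
  have hp0 : IsPGroup 2 j0.range := P.2.of_surjective _ j0.rangeRestrict_surjective
  obtain ⟨R', hR'⟩ := hp0.exists_le_sylow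
  obtain ⟨c, hc⟩ := MulAction.exists_smul_eq G R' R
  have key := a8_core f N hn hi h4 P.2 ((MulAut.conj c).toMonoidHom.comp j0)
    ((MulAut.conj c).injective.comp hj0) (by
      rintro _ ⟨x, rfl⟩
      apply hR
      rw [← hc, Sylow.coe_subgroup_smul]
      exact Subgroup.smul_mem_pointwise_smul _ _ _ (hR' ⟨x, rfl⟩)) (π'.comp (P : Subgroup L).subtype)
  have e1 : (π'.comp (P : Subgroup L).subtype).range = (P.mapSurjective hπ' : Subgroup _) := by
    rw [MonoidHom.range_comp, Subgroup.range_subtype, Sylow.coe_mapSurjective]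
  rw [e1] at key
  have e2 := (P.mapSurjective hπ' : Subgroup (alternatingGroup (Fin 8))).card_mul_index
  have e3 := (P.mapSurjective hπ').not_dvd_index
  have e4 : Nat.card (alternatingGroup (Fin 8)) = 20160 := by
    have := two_mul_nat_card_alternatingGroup (α := Fin 8)
    rw [Nat.card_perm, Nat.card_eq_fintype_card (α := Fin 8), Fintype.card_fin,
      show Nat.factorial 8 = 40320 from rfl] at this
    omega
  rw [e4] at e2
  have e5 : 2 ^ 6 ∣ Nat.card (P.mapSurjective hπ' : Subgroup (alternatingGroup (Fin 8))) :=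
    (Nat.Coprime.pow_left 6 ((Nat.Prime.coprime_iff_not_dvd Nat.prime_two).2 e3)).dvd_of_dvd_mul_right
      (by rw [e2]; norm_num)
  have := Nat.le_of_dvd Nat.card_pos e5
  omega

end Cfsg.Agent.AltS
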