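import Mathlib
import Cfsg.Agent.Chev.Sec7
import Cfsg.Agent.Chev.TwD4
import Cfsg.Agent.Chev.GrAut

/-! Lie-side facts for alternating sections of the triality groups. -/

set_option autoImplicit false
set_option linter.unusedSectionVars false
set_option maxHeartbeats 400000
set_option maxRecDepth 100000

namespace Cfsg.Agent.Chev
open Cfsg.Lie Cfsg.Agent.BN StSys Tw

attribute [local instance] good2D4

variable {K : Type*} [Field K]

theorem d4s_dihedral {q : ℕ} (C : CD4 K q) :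
    ∃ φ : ↥((glSys chevD4 K).N ⊓ twistedD4 K q) →* DihedralGroup 6,
    Function.Surjective φ ∧ φ.ker = ((glSys chevD4 K).H ⊓ twistedD4 K q).subgroupOf
      ((glSys chevD4 K).N ⊓ twistedD4 K q) := by
  obtain ⟨φ, h1, h2⟩ := C.isTw.exists_piW
  have ho : ∀ a, orderOf (orbD4.fold.s a) = 2 := fun a =>
    orderOf_eq_prime (by rw [pow_two, Fold.s_mul_self]) (Fold.s_ne_one _ a)
  obtain ⟨ψ⟩ := S0206.result _ _ (ho 0) (ho 1) fun e =>
    absurd (orbD4.w0_inj (a := 0) (b := 1) (Subtype.ext_iff.mp e)) (by decide)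
  have h3 : Subgroup.closure {orbD4.fold.s 0, orbD4.fold.s 1} = ⊤ := by
    rw [← orbD4.fold.closure_s]; congr 1; ext; simp [Fin.exists_fin_two, eq_comm]
  have h6 : orderOf (w0 (orbD4.J 0) * w0 (orbD4.J 1)) = 6 := by
    rw [← cox_twD4 0 1]; rfl
  rw [← Subgroup.orderOf_coe, Subgroup.coe_mul, Fold.s_coe, Fold.s_coe, Orb.fold_J, h6,
    h3] at ψ
  exact ⟨(Subgroup.topEquiv.symm.trans ψ).toMonoidHom.comp φ,
    (Subgroup.topEquiv.symm.trans ψ).surjective.comp h1, by
      rw [← h2]; exact MonoidHom.ker_mulEquiv_comp φ (Subgroup.topEquiv.symm.trans ψ)⟩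

theorem d4s_emb {K' : Type*} [Field K'] (ι : K →+* K') {q q' : ℕ}
    (h : ∀ t : K, ι (t ^ q) = ι t ^ q') :
    ∃ j : twistedD4 K q →* twistedD4 K' q', Function.Injective j := by
  let f : GL chevD4.Idx K →* GL chevD4.Idx K' := Matrix.GeneralLinearGroup.map ι
  have hf : Function.Injective f := fun a b e => by
    refine Units.ext (Matrix.ext fun i j => ι.injective ?_)
    have := congrArg (fun u : GL chevD4.Idx K' => (u : Matrix _ _ K') i j) e
    exact this
  have hx : ∀ (r : Rt chevD4) (t : K), f ((glSys chevD4 K).x r t) = (glSys chevD4 K').x r (ι t) :=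
    (fieldGL chevD4 ι).f_x
  have hw : ∀ w : List (ℕ × K), f (wd (glSys chevD4 K).x w) =
      wd (glSys chevD4 K').x (w.map fun c => (c.1, ι c.2)) := fun w => by
    unfold wd
    rw [map_list_prod, List.map_map, List.map_map]
    congr 1
    refine List.map_congr_left fun c _ => ?_
    simp only [Function.comp]
    split_ifs with hc
    · exact hx _ _
    · exact map_one f
  have hle : twistedD4 K q ≤ (twistedD4 K' q').comap f := by
    refine genSubgroup_le.mpr ?_
    intro w hw'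
    rw [Subgroup.mem_comap, hw]
    refine wd_mem_gen (W := d4Words K' q') ?_
    rcases hw' with ⟨t, ht, r, hr, rfl⟩ | ⟨t, rs, hr, rfl⟩
    · exact Or.inl ⟨ι t, by rw [← h, ht], r, hr, rfl⟩
    · refine Or.inr ⟨ι t, rs, hr, ?_⟩
      simp only [List.map_cons, List.map_nil]
      rw [pow_two, pow_two, pow_mul, pow_mul, h, h, h]
  exact ⟨(f.comp (twistedD4 K q).subtype).codRestrict _ fun g => hle g.2, fun a b e =>
    Subtype.ext (hf (congrArg Subtype.val e))⟩

theorem d4s_index [Fintype K] {q : ℕ} (hq : IsPrimePow q) (hK : Fintype.card K = q ^ 3) :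
    (((glSys chevD4 K).H ⊓ twistedD4 K q).subgroupOf (twistedD4 K q)).index =
      q ^ 12 * (q + 1) * (q ^ 3 + 1) * (q ^ 8 + q ^ 4 + 1) := by
  set Hs := ((glSys chevD4 K).H ⊓ twistedD4 K q).subgroupOf (twistedD4 K q) with hHs
  have hc : Nat.card Hs = (q - 1) ^ 2 * (q ^ 2 + q + 1) := by
    rw [← card_H_twD4 hq hK]
    exact Nat.card_congr (Subgroup.subgroupOfEquivOfLe inf_le_right).toEquiv
  have h1 := Hs.card_mul_index
  rw [hc, card_twD4 hq hK] at h1
  have h2 := hq.one_lt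
  have hpos : 0 < (q - 1) ^ 2 * (q ^ 2 + q + 1) := Nat.mul_pos (pow_pos (by omega) 2) (by omega)
  refine Nat.eq_of_mul_eq_mul_left hpos ?_
  rw [h1]
  zify [h2.le, Nat.one_le_pow _ _ hq.pos]
  ring

theorem d4s_five [Fintype K] {q : ℕ} (hq : IsPrimePow q) (hK : Fintype.card K = q ^ 3)
    (h5 : q % 5 = 1) (P : Subgroup (twistedD4 K q))
    (hP : IsPGroup 5 P) (y : twistedD4 K q)
    (hy : y ∈ Subgroup.normalizer (P : Set (twistedD4 K q))) (x) (hx : x ∈ P) :
    y ^ 6 * x * (y ^ 6)⁻¹ = x := by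
  obtain ⟨C⟩ := exists_CD4 hq hK
  haveI : Fact (Nat.Prime 5) := ⟨by norm_num⟩
  have hfin : Finite (twistedD4 K q) := inferInstance
  have hi : ¬ 5 ∣ (((glSys chevD4 K).H ⊓ twistedD4 K q).subgroupOf (twistedD4 K q)).index := by
    rw [d4s_index hq hK, Nat.dvd_iff_mod_eq_zero]
    simp [Nat.mul_mod, Nat.add_mod, Nat.pow_mod, h5]
  obtain ⟨R, hR⟩ := FGS.exists_sylow_le_of_not_dvd_index hi
  obtain ⟨R', hR'⟩ := hP.exists_le_sylow
  obtain ⟨c, hc⟩ := MulAction.exists_smul_eq (twistedD4 K q) R' R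
  have hPH : ∀ s ∈ P, ((c * s * c⁻¹ : twistedD4 K q) : GL _ K) ∈ (glSys chevD4 K).H := by
    intro s hs
    have : c * s * c⁻¹ ∈ (R : Subgroup _) := by
      rw [← hc, Sylow.coe_subgroup_smul]
      exact Subgroup.smul_mem_pointwise_smul _ _ _ (hR' hs)
    exact (hR this).1
  obtain ⟨n, hn, hn'⟩ := exists_N_act (T := C.T) (y := ((c * y * c⁻¹ : twistedD4 K q) : GL _ K))
    (C.eq_Fx ▸ (c * y * c⁻¹).2)
  rw [← C.eq_Fx] at hn
  have hyP : ∀ k : ℕ, y ^ k * x * (y ^ k)⁻¹ ∈ P := fun k =>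
    (Subgroup.mem_normalizer_iff.mp (pow_mem hy k) x).1 hx
  have key : ∀ k : ℕ, ((c * (y ^ k * x * (y ^ k)⁻¹) * c⁻¹ : twistedD4 K q) : GL _ K) =
      n ^ k * ((c * x * c⁻¹ : twistedD4 K q) : GL _ K) * (n ^ k)⁻¹ := fun k => by
    induction k with
    | zero => simp
    | succ k ih =>
      have e : (c * (y ^ (k + 1) * x * (y ^ (k + 1))⁻¹) * c⁻¹ : twistedD4 K q) =
          (c * y * c⁻¹) * (c * (y ^ k * x * (y ^ k)⁻¹) * c⁻¹) * (c * y * c⁻¹)⁻¹ := by
        rw [pow_succ']; group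
      have h1 := hPH _ (hyP (k + 1))
      rw [e] at h1 ⊢
      have := hn' _ (hPH _ (hyP k)) (by simpa only [Subgroup.coe_mul, Subgroup.coe_inv] using h1)
      simp only [Subgroup.coe_mul, Subgroup.coe_inv] at this ih ⊢
      rw [this, ih, pow_succ']; group
  obtain ⟨φ, -, hφ⟩ := d4s_dihedral C
  have h8 : n ^ 6 ∈ (glSys chevD4 K).H := by
    have : (⟨n, hn⟩ : ↥((glSys chevD4 K).N ⊓ twistedD4 K q)) ^ 6 ∈ φ.ker := by
      rw [MonoidHom.mem_ker, map_pow]
      generalize φ _ = d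
      revert d; decide
    rw [hφ] at this
    exact this.1
  have := key 6
  rw [gl_H_comm _ h8 _ (hPH x hx), mul_inv_cancel_right] at this
  have := Subtype.ext this
  simpa using this

/-- the torus as the image of a commutative group with small 2-torsion -/
theorem d4s_torus [Fintype K] {q : ℕ} (hq : IsPrimePow q) (hK : Fintype.card K = q ^ 3) :
    ∃ f : ↥(Tσ (F := K) symD4a fun _ => q) →* twistedD4 K q,
      f.range = ((glSys chevD4 K).H ⊓ twistedD4 K q).subgroupOf (twistedD4 K q) ∧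
      Nat.card {m : ↥(Tσ (F := K) symD4a fun _ => q) // m ^ 2 = 1} ≤ 4 := by
  obtain ⟨C⟩ := exists_CD4 hq hK
  have hm : ∀ c : ↥(Tσ (F := K) symD4a fun _ => q), gl_R3.hT c.1 ∈
      (glSys chevD4 K).H ⊓ twistedD4 K q := fun c => by
    rw [C.H_inf]; exact ⟨c.1, c.2, rfl⟩
  refine ⟨(gl_R3.hT.comp (Tσ (F := K) symD4a fun _ => q).subtype).codRestrict _ fun c => (hm c).2,
    ?_, ?_⟩
  · ext g
    rw [Subgroup.mem_subgroupOf, C.H_inf]
    constructor
    · rintro ⟨c, rfl⟩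
      exact ⟨c.1, c.2, rfl⟩
    · rintro ⟨c, hc, e⟩
      exact ⟨⟨c, hc⟩, Subtype.ext e⟩
  · have hs : ∀ u : Kˣ, u ^ 2 = 1 → u = 1 ∨ u = -1 := fun u hu => by
      have : (u : K) * u = 1 := by
        rw [← pow_two, ← Units.val_pow_eq_pow_val, hu, Units.val_one]
      rcases mul_self_eq_one_iff.mp this with e | e
      · exact Or.inl (Units.ext e)
      · exact Or.inr (Units.ext (by simpa using e))
    classical
    let g : {m : ↥(Tσ (F := K) symD4a fun _ => q) // m ^ 2 = 1} → Bool × Bool := fun m =>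
      (decide (m.1.1 (nD4 0) = 1), decide (m.1.1 (nD4 1) = 1))
    have hg : Function.Injective g := fun a b e => by
      have ha : ∀ i, a.1.1 i ^ 2 = 1 := fun i => congrFun (congrArg Subtype.val a.2) i
      have hb : ∀ i, b.1.1 i ^ 2 = 1 := fun i => congrFun (congrArg Subtype.val b.2) i
      have aux : ∀ i, decide (a.1.1 i = 1) = decide (b.1.1 i = 1) → a.1.1 i = b.1.1 i := fun i h => by
        rw [decide_eq_decide] at h
        by_cases h1 : a.1.1 i = 1
        · rw [h1, h.1 h1]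
        · rw [(hs _ (ha i)).resolve_left h1, (hs _ (hb i)).resolve_left fun h2 => h1 (h.2 h2)]
      have e0 := aux _ (congrArg Prod.fst e)
      have e1 := aux _ (congrArg Prod.snd e)
      obtain ⟨a2, -, a3, -⟩ := (mem_Tσ_D4 a.1.1).mp a.1.2
      obtain ⟨b2, -, b3, -⟩ := (mem_Tσ_D4 b.1.1).mp b.1.2
      have e2 : a.1.1 (nD4 2) = b.1.1 (nD4 2) := a2.trans ((congrArg (· ^ q) e0).trans b2.symm)
      have e3 : a.1.1 (nD4 3) = b.1.1 (nD4 3) := a3.trans ((congrArg (· ^ q) e2).trans b3.symm)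
      refine Subtype.ext (Subtype.ext (funext fun i : Fin 4 => ?_))
      fin_cases i
      exacts [e0, e1, e2, e3]
    simpa using Nat.card_le_card_of_injective g hg

/-- data for the Sylow 2 argument -/
theorem d4s_two [Fintype K] {q : ℕ} (hq : IsPrimePow q) (hK : Fintype.card K = q ^ 3)
    (h8 : q % 8 = 1 ∨ q % 8 = 5) :
    ∃ (f : ↥(Tσ (F := K) symD4a fun _ => q) →* twistedD4 K q) (N : Subgroup (twistedD4 K q)),
      (∀ n ∈ N, ∀ t ∈ f.range, n * t * n⁻¹ ∈ f.range) ∧ f.range.relIndex N ∣ 12 ∧ ¬ 2 ∣ N.index ∧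
      Nat.card {m : ↥(Tσ (F := K) symD4a fun _ => q) // m ^ 2 = 1} ≤ 4 := by
  obtain ⟨C⟩ := exists_CD4 hq hK
  obtain ⟨f, hf, h4⟩ := d4s_torus hq hK
  obtain ⟨φ, hφ1, hφ⟩ := d4s_dihedral C
  have hHN : (glSys chevD4 K).H ⊓ twistedD4 K q ≤ (glSys chevD4 K).N ⊓ twistedD4 K q :=
    inf_le_inf_right _ (glSys chevD4 K).H_le_N
  have h12 : (((glSys chevD4 K).H ⊓ twistedD4 K q).subgroupOf (twistedD4 K q)).relIndex
      (((glSys chevD4 K).N ⊓ twistedD4 K q).subgroupOf (twistedD4 K q)) = 12 := by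
    rw [Subgroup.relIndex_subgroupOf inf_le_right, Subgroup.relIndex, ← hφ, Subgroup.index_ker,
      MonoidHom.range_eq_top.mpr hφ1, Subgroup.card_top, DihedralGroup.nat_card]
  refine ⟨f, ((glSys chevD4 K).N ⊓ twistedD4 K q).subgroupOf (twistedD4 K q), ?_, ?_, ?_, h4⟩
  · intro n hn t ht
    rw [hf] at ht ⊢
    have h1 : (⟨t.1, hHN ht⟩ : ↥((glSys chevD4 K).N ⊓ twistedD4 K q)) ∈ φ.ker := by
      rw [hφ]; exact ht
    have h2 := (MonoidHom.normal_ker φ).conj_mem _ h1 ⟨n.1, hn⟩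
    rw [hφ] at h2
    exact h2
  · rw [hf, h12]
  · rintro ⟨k, hk⟩
    have h1 := Subgroup.relIndex_mul_index (Subgroup.subgroupOf_mono (twistedD4 K q) hHN)
    rw [h12, hk, d4s_index hq hK] at h1
    have h2 := congrArg (· % 8) h1
    have h3 : 12 * (2 * k) % 8 = 0 := by omega
    simp only [h3] at h2
    rcases h8 with h | h <;> simp [Nat.mul_mod, Nat.add_mod, Nat.pow_mod, h] at h2

theorem d4s_ext [Fintype K] (p : ℕ) [Fact p.Prime] [CharP K p] {q : ℕ}
    (hK : Fintype.card K = q ^ 3) :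
    ∃ (K' : Type) (_ : Field K') (_ : Fintype K'), Fintype.card K' = (q ^ 4) ^ 3 ∧
      ∃ j : twistedD4 K q →* twistedD4 K' (q ^ 4), Function.Injective j := by
  letI : Fintype (FiniteField.Extension K p 4) := Fintype.ofFinite _
  refine ⟨FiniteField.Extension K p 4, inferInstance, inferInstance, ?_,
    d4s_emb (algebraMap K _) fun t => ?_⟩
  · rw [← Nat.card_eq_fintype_card, FiniteField.natCard_extension, Nat.card_eq_fintype_card, hK]
    ring
  · rw [← map_pow, pow_succ, pow_mul, ← hK, FiniteField.pow_card]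

end Cfsg.Agent.Chev
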