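import Mathlib
import Cfsg.Agent.Chev.Sec7

/-! No section `A_r`, `r ≥ 7`, when elements normalizing a 5-subgroup act with exponent 6. -/

set_option autoImplicit false

namespace Cfsg.Agent.AltS
open Cfsg.Agent.Chev

def d4bA : Equiv.Perm (Fin 7) := ⟨![1, 2, 3, 4, 0, 5, 6], ![4, 0, 1, 2, 3, 5, 6], by decide, by decide⟩
def d4bB : Equiv.Perm (Fin 7) := ⟨![0, 2, 4, 1, 3, 6, 5], ![0, 3, 1, 4, 2, 6, 5], by decide, by decide⟩

theorem d4b_ex {r : ℕ} (hr : 7 ≤ r) : ∃ a b : alternatingGroup (Fin r),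
    orderOf a = 5 ∧ b * a * b⁻¹ = a ^ 2 := by
  let ι := Equiv.Perm.viaEmbeddingHom (Fin.castLEEmb hr)
  have hι : Function.Injective ι := Equiv.Perm.viaEmbeddingHom_injective _
  have hs : ∀ c : Equiv.Perm (Fin 7), Equiv.Perm.sign c = 1 → ι c ∈ alternatingGroup (Fin r) :=
    fun c hc => by
      rw [Equiv.Perm.mem_alternatingGroup]
      change Equiv.Perm.sign (c.viaEmbedding _) = 1
      rw [Equiv.Perm.viaEmbedding, Equiv.Perm.sign_extendDomain, hc]
  refine ⟨⟨ι d4bA, hs _ (by decide)⟩, ⟨ι d4bB, hs _ (by decide)⟩, ?_, Subtype.ext ?_⟩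
  · rw [← Subgroup.orderOf_coe, orderOf_injective ι hι]
    exact orderOf_eq_prime (hp := ⟨by norm_num⟩) (by decide) (by decide)
  · simp only [Subgroup.coe_mul, Subgroup.coe_inv, Subgroup.coe_pow]
    rw [← map_inv, ← map_mul, ← map_mul, ← map_pow]
    congr 1
    decide

theorem d4b_noA7 {G : Type*} [Group G] [Finite G] (hG : ∀ P : Subgroup G, IsPGroup 5 P →
    ∀ y ∈ Subgroup.normalizer (P : Set G), ∀ x ∈ P, y ^ 6 * x * (y ^ 6)⁻¹ = x) (r : ℕ)
    (H : Subgroup G) (N : Subgroup H) [N.Normal]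
    (h : Nonempty (H ⧸ N ≃* alternatingGroup (Fin r))) : r ≤ 6 := by
  by_contra hr
  obtain ⟨e⟩ := h
  obtain ⟨a, b, ha, hb⟩ := d4b_ex (r := r) (by omega)
  haveI : Fact (Nat.Prime 5) := ⟨by norm_num⟩
  have hbn : b ∈ Subgroup.normalizer (Subgroup.zpowers a : Set _) := by
    refine Subgroup.mem_normalizer_fintype fun n hn => ?_
    obtain ⟨k, rfl⟩ := hn
    simp only
    rw [← conj_zpow, hb]
    exact zpow_mem (pow_mem (Subgroup.mem_zpowers a) 2) k
  obtain ⟨P, hP, y, hy, x, hx, hxa, hya⟩ := exists_lift_fusion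
    (e.toMonoidHom.comp (QuotientGroup.mk' N)) (e.surjective.comp (QuotientGroup.mk'_surjective N))
    ha hbn
  set π := e.toMonoidHom.comp (QuotientGroup.mk' N)
  have h1 := hG (P.map H.subtype) (hP.map _) y
    (Subgroup.le_normalizer_map _ ⟨y, hy, rfl⟩) x ⟨x, hx, rfl⟩
  have h2 : y ^ 6 * x * (y ^ 6)⁻¹ = x := Subtype.ext (by simpa using h1)
  have h3 := congrArg π h2
  rw [map_mul, map_mul, map_inv, map_pow, hxa] at h3
  rw [hb] at hya
  have h4 : ∀ k : ℕ, π y ^ k * a * (π y ^ k)⁻¹ = a ^ 2 ^ k := fun k => by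
    induction k with
    | zero => simp
    | succ k ih =>
      calc π y ^ (k + 1) * a * (π y ^ (k + 1))⁻¹ = π y * (π y ^ k * a * (π y ^ k)⁻¹) * (π y)⁻¹ := by
            rw [pow_succ']; group
        _ = _ := by rw [ih, ← conj_pow, hya, ← pow_mul, pow_succ']
  rw [h4] at h3
  have h5 : a ^ 63 = 1 := by
    have : a ^ 63 * a = 1 * a := by rw [← pow_succ, one_mul]; exact h3
    exact mul_right_cancel this
  have := orderOf_dvd_of_pow_eq_one h5
  rw [ha] at this
  norm_num at this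

end Cfsg.Agent.AltS
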