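import Mathlib
import Cfsg.Agent.Chev.GrAut
import Cfsg.Agent.S1059
import Cfsg.Agent.Chev.Tw
import Cfsg.Agent.FGS.Basic

/-! Tori and Sylow subgroups of the groups of type `G₂`. -/

set_option autoImplicit false
set_option linter.unusedSectionVars false
set_option maxRecDepth 100000

namespace Cfsg.Agent.AltS
open Cfsg.Lie Cfsg.Agent.Chev Cfsg.Agent.BN StSys Tw Subgroup

attribute [local instance] good2G2

theorem g2_act {D : ChevalleyDatum} [g : Good2 D] {F : Type*} [Field F] {G : Type*} [Group G]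
    {S : StSys D F G} {y : G} (hy : y ∈ S.grp) : ∃ n ∈ S.N, ∀ s ∈ S.H, y * s * y⁻¹ ∈ S.H →
    y * s * y⁻¹ = n * s * n⁻¹ := by
  obtain ⟨w, hw⟩ := exists_cell hy
  obtain ⟨u, hu, a, ha, hm, v, hv, rfl⟩ := exists_normal' hw
  refine ⟨a, ha, fun s hs hs' => ?_⟩
  set s' := u * a * v * s * (u * a * v)⁻¹ with e
  have := (normal_unique' hu (H_conj_mem hs' hu) (mul_mem ha (S.H_le_N hs))
    (mul_mem (S.H_le_N hs') ha) (by simpa using hm.mul (mono_of_mem_H hs))
    (by simpa using (mono_of_mem_H hs').mul hm) (H_conj_mem' hs hv) hv (by rw [e]; group)).2.1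
  rw [eq_mul_inv_iff_mul_eq, this]

/-- words for the Weyl group -/
def g2wd : List (List (Ix chevG2)) := ([[], [0], [1], [0, 1], [1, 0], [0, 1, 0], [1, 0, 1], [0, 1, 0, 1],
  [1, 0, 1, 0], [0, 1, 0, 1, 0], [1, 0, 1, 0, 1], [0, 1, 0, 1, 0, 1]] : List (List (Fin 2)))

theorem g2_six (w : W chevG2) : w ^ 6 = 1 := by
  have h : ∃ l ∈ g2wd, ∀ r : Rt chevG2, w • r = l.foldr rf r := by
    induction w using W_ind_right with
    | h1 => exact ⟨[], by decide +kernel, fun r => one_smul _ r⟩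
    | hs i w _ ih =>
      obtain ⟨l, hl, e⟩ := ih
      obtain ⟨l', hl', e'⟩ := (by decide +kernel : ∀ l ∈ g2wd, ∀ i : Ix chevG2, ∃ l' ∈ g2wd,
        ∀ r : Rt chevG2, l.foldr rf (rf i r) = l'.foldr rf r) l hl i
      exact ⟨l', hl', fun r => by rw [mul_smul, sW_smul, e, e']⟩
  obtain ⟨l, hl, e⟩ := h
  refine Subtype.ext (Equiv.ext fun r => ?_)
  change (w ^ 6) • r = r
  simp only [pow_succ, pow_zero, one_mul, mul_smul, e]
  clear e
  revert l r
  decide +kernel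

variable {F : Type*} [Field F] [Fintype F]

theorem g2_pow {n : chevG2.group F} (hn : n ∈ (chSys chevG2 F).N) : n ^ 6 ∈ (chSys chevG2 F).H := by
  have : (⟨n, hn⟩ : (chSys chevG2 F).N) ^ 6 ∈ (chSys chevG2 F).piW.ker := by
    rw [MonoidHom.mem_ker, map_pow, g2_six]
  rwa [ker_piW] at this

theorem g2_inj : Function.Injective (ch_R3 (D := chevG2) (F := F)).hT :=
  (injective_iff_map_eq_one _).2 fun c h => by
    have h1 : c ∈ (pw Fˣ (cartanM chevG2)).ker := (ch_R3.θ_hT_eq_one c).1 (by rw [h, map_one])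
    rwa [card_eq_one.1 (card_ker_G2 Fˣ)] at h1

theorem g2_index : ∃ t, Fintype.card F = t + 1 ∧ (chSys chevG2 F).H.index =
    (t + 1) ^ 6 * (t + 2) ^ 2 * ((t + 1) ^ 4 + (t + 1) ^ 2 + 1) := by
  obtain ⟨t, ht⟩ : ∃ t, Fintype.card F = t + 1 := ⟨Fintype.card F - 1, by
    have := Fintype.card_pos (α := F); omega⟩
  have ht1 : 0 < t := by
    have := Fintype.one_lt_card (α := F); omega
  have h1 := (chSys chevG2 F).H.card_mul_index
  have h2 := (ch_R3 (D := chevG2) (F := F)).card_H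
  rw [(MonoidHom.ker_eq_bot_iff _).2 g2_inj, card_bot, one_mul, Nat.card_eq_fintype_card (α := F), ht,
    Nat.add_sub_cancel] at h2
  replace h2 : Nat.card (chSys chevG2 F).H = t ^ 2 := h2
  have h3 : (t + 1) ^ 2 - 1 = t * (t + 2) := by
    rw [Nat.sub_eq_iff_eq_add (Nat.one_le_pow _ _ (by omega))]; ring
  have h4 : (t + 1) ^ 6 - 1 = t * (t + 2) * ((t + 1) ^ 4 + (t + 1) ^ 2 + 1) := by
    rw [Nat.sub_eq_iff_eq_add (Nat.one_le_pow _ _ (by omega))]; ring
  rw [h2, S1059.result ht, h3, h4] at h1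
  exact ⟨t, ht, Nat.eq_of_mul_eq_mul_left (pow_pos ht1 2) (by rw [h1]; ring)⟩

theorem g2_five (hq : Fintype.card F % 5 = 1) (P : Subgroup (chevG2.group F)) (hP : IsPGroup 5 P) :
    ∀ y ∈ normalizer (P : Set (chevG2.group F)), ∀ x ∈ P, y ^ 6 * x * (y ^ 6)⁻¹ = x := by
  intro y hy x hx
  have : Fact (Nat.Prime 5) := ⟨by norm_num⟩
  have hi : ¬ 5 ∣ (chSys chevG2 F).H.index := by
    obtain ⟨t, h1, h2⟩ := g2_index (F := F)
    rw [h2, show t + 2 = t + 1 + 1 from rfl, Nat.dvd_iff_mod_eq_zero]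
    rw [h1] at hq
    generalize t + 1 = s at hq
    simp [Nat.mul_mod, Nat.add_mod, Nat.pow_mod, hq]
  obtain ⟨R, hR⟩ := FGS.exists_sylow_le_of_not_dvd_index hi
  obtain ⟨R', hR'⟩ := hP.exists_le_sylow
  obtain ⟨c, hc⟩ := MulAction.exists_smul_eq (chevG2.group F) R' R
  have hPH : ∀ s ∈ P, c * s * c⁻¹ ∈ (chSys chevG2 F).H := fun s hs => hR (by
    rw [← hc, Sylow.coe_subgroup_smul]
    exact smul_mem_pointwise_smul _ _ _ (hR' hs))
  obtain ⟨n, hn, hn'⟩ := g2_act (S := chSys chevG2 F) (y := c * y * c⁻¹) (by rw [ch_grp]; trivial)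
  have hyP : ∀ k : ℕ, y ^ k * x * (y ^ k)⁻¹ ∈ P := fun k =>
    (mem_normalizer_iff.mp (pow_mem hy k) x).1 hx
  have key : ∀ k : ℕ, c * (y ^ k * x * (y ^ k)⁻¹) * c⁻¹ = n ^ k * (c * x * c⁻¹) * (n ^ k)⁻¹ :=
    fun k => by
    induction k with
    | zero => simp
    | succ k ih =>
      have e : c * (y ^ (k + 1) * x * (y ^ (k + 1))⁻¹) * c⁻¹ =
          (c * y * c⁻¹) * (c * (y ^ k * x * (y ^ k)⁻¹) * c⁻¹) * (c * y * c⁻¹)⁻¹ := by
        rw [pow_succ']; group
      rw [e, hn' _ (hPH _ (hyP k)) (e ▸ hPH _ (hyP (k + 1))), ih, pow_succ']; group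
  have := key 6
  rw [H_comm_of_inj (fun y _ h => ch_θ_inj (h.trans (map_one _).symm)) _ (g2_pow hn) _ (hPH x hx),
    mul_inv_cancel_right] at this
  simpa using this

theorem g2_rel : (chSys chevG2 F).H.relIndex (chSys chevG2 F).N = 12 := by
  rw [relIndex, ← ker_piW, index_ker, MonoidHom.range_eq_top.2 (piW_surjective _), card_top, card_W_G2]

theorem g2_odd (hq : Fintype.card F % 4 = 1) : ¬ 2 ∣ (chSys chevG2 F).N.index := by
  obtain ⟨t, h1, h2⟩ := g2_index (F := F)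
  rw [← relIndex_mul_index (chSys chevG2 F).H_le_N, g2_rel, show t + 2 = t + 1 + 1 from rfl] at h2
  rintro ⟨m, hm⟩
  rw [h1] at hq
  generalize t + 1 = s at hq h2
  have h3 := congrArg (· % 8) h2
  have : s % 8 = 1 ∨ s % 8 = 5 := by omega
  rcases this with h | h <;> simp [hm, Nat.mul_mod, Nat.add_mod, Nat.pow_mod, h] at h3 <;> omega

theorem g2_four : Nat.card {m : Ix chevG2 → Fˣ // m ^ 2 = 1} ≤ 4 := by
  classical
  let f : (Fin 2 → Bool) → {m : Ix chevG2 → Fˣ // m ^ 2 = 1} := fun b =>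
    ⟨fun i => if b i then 1 else -1, funext fun i => by
      simp only [Pi.pow_apply, Pi.one_apply]; split_ifs <;> simp⟩
  refine (Nat.card_le_card_of_surjective f fun m => ⟨fun i => decide (m.1 i = 1), Subtype.ext
    (funext fun i => ?_)⟩).trans (by simp)
  have h : (m.1 i : F) ^ 2 = 1 := by
    rw [← Units.val_pow_eq_pow_val, ← Pi.pow_apply, m.2]; rfl
  by_cases c : m.1 i = 1
  · simp [f, c]
  · simp only [f, c, decide_false, Bool.false_eq_true, if_false]
    exact Units.ext ((sq_eq_one_iff.1 h).resolve_left fun e => c (Units.ext e)).symm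

end Cfsg.Agent.AltS
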