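import Cfsg.Agent.AltS.G2
import Cfsg.Agent.AltS.A7b
import Cfsg.Agent.AltS.A8b

/-! Alternating sections of the groups of type `G₂`. -/

set_option autoImplicit false

namespace Cfsg.Agent.AltS
open Cfsg.Lie Cfsg.Agent.Chev Subgroup

attribute [local instance] good2G2

theorem g2_main {F : Type*} [Field F] [Fintype F] (p : ℕ) [Fact p.Prime] [CharP F p]
    (r : ℕ) (H : Subgroup ↥(chevG2.group F)) (K : Subgroup ↥H) [K.Normal]
    (h : Nonempty (↥H ⧸ K ≃* ↥(alternatingGroup (Fin r)))) : r ≤ 6 + (if p = 5 then 1 else 0) := by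
  obtain ⟨n, hp, hn⟩ := FiniteField.card F p
  split_ifs with c
  · refine no_A8b (ch_R3 (D := chevG2) (F := F)).hT (chSys chevG2 F).N ?_ ?_ (g2_odd ?_) g2_four r H K h
    · rw [ch_R3.range_hT]
      exact fun n hn t ht => StSys.conj_mem_H hn ht
    · rw [ch_R3.range_hT, g2_rel]
    · rw [hn, c, Nat.pow_mod]; simp
  · let E := FiniteField.Extension F p 4
    have := Fintype.ofFinite E
    have hE : Fintype.card E % 5 = 1 := by
      rw [← Nat.card_eq_fintype_card, FiniteField.natCard_extension, Nat.card_eq_fintype_card]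
      have h5 : ¬ 5 ∣ Fintype.card F := fun h5 => c ((Nat.prime_dvd_prime_iff_eq (by norm_num) hp).1
        ((by norm_num : Nat.Prime 5).dvd_of_dvd_pow (hn ▸ h5))).symm
      generalize Fintype.card F = q at h5
      have : q % 5 = 1 ∨ q % 5 = 2 ∨ q % 5 = 3 ∨ q % 5 = 4 := by omega
      rcases this with h | h | h | h <;> simp [Nat.pow_mod, h]
    let j := (fieldMor chevG2 (algebraMap F E)).f
    let e := H.equivMapOfInjective j ((fieldMor chevG2 (algebraMap F E)).injective ch_grp ch_θ_inj)
    have : (K.map (e : H →* H.map j)).Normal := Normal.map ‹_› _ e.surjective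
    exact no_A7b (g2_five hE) r (H.map j) (K.map (e : H →* H.map j))
      ⟨(QuotientGroup.congr K _ e rfl).symm.trans h.some⟩

end Cfsg.Agent.AltS
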